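import Cfsg.Agent.H911.AdForm
import Cfsg.Agent.H179.G2H

/-!
# The invariant alternating 3-form of the adjoint module of `SL(3, E)` (helper887)

* `exists_altForm` : `Core P`, `SD P`, `Soc P = PSL(3, E)`, own characteristic `p ≠ 2`, `n ≤ 11`: there is a non-zero
  `P`-invariant alternating trilinear form, `f (X, Y, Z) = tr (X [Y, Z])`.
-/

set_option autoImplicit false

namespace Cfsg.Agent.H887.DS

open Matrix Module
open Cfsg.Agent.H911.Ad Cfsg.Agent.H911.Ad.Mo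
open Cfsg Cfsg.Geo Cfsg.Agent.H67
open Cfsg.Agent.H915.LD (Core Soc tr SD Fr Cj)
open Cfsg.Agent.H179.G2 (IsAltForm)

section tri

variable {F V : Type*} [Field F] [AddCommGroup V] [Module F V]

/-- a trilinear map from a function -/
def tri (g : V → V → V → F) (a1 : ∀ x x' y z, g (x + x') y z = g x y z + g x' y z)
    (s1 : ∀ (c : F) x y z, g (c • x) y z = c * g x y z) (a2 : ∀ x y y' z, g x (y + y') z = g x y z + g x y' z)
    (s2 : ∀ (c : F) x y z, g x (c • y) z = c * g x y z) (a3 : ∀ x y z z', g x y (z + z') = g x y z + g x y z')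
    (s3 : ∀ (c : F) x y z, g x y (c • z) = c * g x y z) : V →ₗ[F] V →ₗ[F] V →ₗ[F] F :=
  LinearMap.mk₂ F (fun x y => { toFun := g x y, map_add' := a3 x y, map_smul' := fun c z => s3 c x y z })
    (fun x x' y => LinearMap.ext fun z => a1 x x' y z) (fun c x y => LinearMap.ext fun z => s1 c x y z)
    (fun x y y' => LinearMap.ext fun z => a2 x y y' z) (fun c x y => LinearMap.ext fun z => s2 c x y z)

end tri

/-- the form -/
def t3 {k : Type*} [Field k] (X Y Z : Matrix (Fin 3) (Fin 3) k) : k := (X * (Y * Z - Z * Y)).trace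

section t3

variable {k : Type*} [Field k]

theorem t3_add1 (X X' Y Z : Matrix (Fin 3) (Fin 3) k) : t3 (X + X') Y Z = t3 X Y Z + t3 X' Y Z := by
  unfold t3
  rw [add_mul, Matrix.trace_add]

theorem t3_smul1 (c : k) (X Y Z : Matrix (Fin 3) (Fin 3) k) : t3 (c • X) Y Z = c * t3 X Y Z := by
  unfold t3
  rw [smul_mul_assoc, Matrix.trace_smul, smul_eq_mul]

theorem t3_rot (X Y Z : Matrix (Fin 3) (Fin 3) k) : t3 X Y Z = t3 Y Z X := by
  unfold t3
  rw [mul_sub, mul_sub, Matrix.trace_sub, Matrix.trace_sub, ← mul_assoc, ← mul_assoc, ← mul_assoc, ← mul_assoc,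
    Matrix.trace_mul_cycle X Y Z, Matrix.trace_mul_cycle X Z Y, Matrix.trace_mul_cycle Z X Y]

theorem t3_self (X Z : Matrix (Fin 3) (Fin 3) k) : t3 X X Z = 0 := by
  unfold t3
  rw [mul_sub, Matrix.trace_sub, ← mul_assoc, ← mul_assoc, Matrix.trace_mul_cycle X Z X, sub_self]

theorem t3_one (Y Z : Matrix (Fin 3) (Fin 3) k) : t3 1 Y Z = 0 := by
  unfold t3
  rw [one_mul, Matrix.trace_sub, Matrix.trace_mul_comm, sub_self]

theorem t3_add2 (X Y Y' Z : Matrix (Fin 3) (Fin 3) k) : t3 X (Y + Y') Z = t3 X Y Z + t3 X Y' Z := by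
  rw [t3_rot, t3_add1, ← t3_rot X Y Z, ← t3_rot X Y' Z]

theorem t3_smul2 (c : k) (X Y Z : Matrix (Fin 3) (Fin 3) k) : t3 X (c • Y) Z = c * t3 X Y Z := by
  rw [t3_rot, t3_smul1, ← t3_rot]

theorem t3_add3 (X Y Z Z' : Matrix (Fin 3) (Fin 3) k) : t3 X Y (Z + Z') = t3 X Y Z + t3 X Y Z' := by
  rw [t3_rot, t3_add2, ← t3_rot X Y Z, ← t3_rot X Y Z']

theorem t3_smul3 (c : k) (X Y Z : Matrix (Fin 3) (Fin 3) k) : t3 X Y (c • Z) = c * t3 X Y Z := by
  rw [t3_rot, t3_smul2, ← t3_rot]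

theorem t3_shift (X Y Z : Matrix (Fin 3) (Fin 3) k) (a b c : k) :
    t3 (X + a • 1) (Y + b • 1) (Z + c • 1) = t3 X Y Z := by
  rw [t3_add1, t3_smul1, t3_one, mul_zero, add_zero, t3_add2, t3_smul2, t3_rot X 1, t3_one, mul_zero, add_zero,
    t3_add3, t3_smul3, t3_rot X Y 1, t3_rot Y 1 X, t3_one, mul_zero, add_zero]

theorem t3_conj (g h : Matrix (Fin 3) (Fin 3) k) (hg : h * g = 1) (X Y Z : Matrix (Fin 3) (Fin 3) k) :
    t3 (g * X * h) (g * Y * h) (g * Z * h) = t3 X Y Z := by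
  have e : ∀ A B : Matrix (Fin 3) (Fin 3) k, g * A * h * (g * B * h) = g * (A * B) * h := by
    intro A B
    calc g * A * h * (g * B * h) = g * A * (h * g) * B * h := by simp only [mul_assoc]
      _ = g * (A * B) * h := by rw [hg, mul_one]; simp only [mul_assoc]
  unfold t3
  rw [e, e, ← sub_mul, ← mul_sub, e, Matrix.trace_mul_cycle, hg, one_mul]

end t3

section P

variable {F : Type*} [Field F] [Finite F] {ι : Type} [Fintype ι] [DecidableEq ι] {P : Subgroup (GL ι F)}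
  {E : Type*} [Field E] [Finite E] (p : ℕ) [hp : Fact p.Prime] [hFp : CharP F p] [hEp : CharP E p]

/-- the value on representatives -/
noncomputable def gf (θ : (ι → F) ≃ₗ[F] M F) (u v w : ι → F) : F :=
  t3 (Classical.choose (mk_surj (θ u))).1 (Classical.choose (mk_surj (θ v))).1 (Classical.choose (mk_surj (θ w))).1

omit [Finite F] [Fintype ι] [DecidableEq ι] in
theorem gf_eq (θ : (ι → F) ≃ₗ[F] M F) {u v w : ι → F} {X Y Z : S F} (hX : mk X = θ u) (hY : mk Y = θ v)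
    (hZ : mk Z = θ w) : gf θ u v w = t3 X.1 Y.1 Z.1 := by
  have key : ∀ {u : ι → F} {X : S F}, mk X = θ u → ∃ a : F, (Classical.choose (mk_surj (θ u))).1 = X.1 + a • 1 := by
    intro u X hX
    have h1 : mk (Classical.choose (mk_surj (θ u)) - X) = 0 := by
      rw [map_sub, hX, Classical.choose_spec (mk_surj (θ u)), sub_self]
    obtain ⟨a, ha⟩ := mk_eq_zero.1 h1
    refine ⟨a, ?_⟩
    rw [ha]
    exact (add_sub_cancel _ _).symm
  obtain ⟨a, ha⟩ := key hX
  obtain ⟨b, hb⟩ := key hY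
  obtain ⟨c, hc⟩ := key hZ
  unfold gf
  rw [ha, hb, hc, t3_shift]

include hp hFp hEp

/-- **The invariant 3-form.** -/
theorem exists_altForm (hp2 : p ≠ 2) (hC : Core P) (hsd : SD P) (Φ : Soc P ≃* ProjectiveSpecialLinearGroup (Fin 3) E)
    (hn : Fintype.card ι ≤ 11) :
    ∃ f : (ι → F) →ₗ[F] (ι → F) →ₗ[F] (ι → F) →ₗ[F] F, IsAltForm f ∧ f ≠ 0 ∧
      ∀ g ∈ P, ∀ x y z, f ((g : Matrix ι ι F) *ᵥ x) ((g : Matrix ι ι F) *ᵥ y) ((g : Matrix ι ι F) *ᵥ z) = f x y z := by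
  obtain ⟨σ, φ, θ, hσ, hφ, hθ⟩ := psl3_model p hC hsd Φ hn
  choose r hr using fun u : ι → F => mk_surj (θ u)
  have ga : ∀ u u', mk (r u + r u') = θ (u + u') := fun u u' => by rw [map_add, map_add, hr, hr]
  have gs : ∀ (c : F) u, mk (c • r u) = θ (c • u) := fun c u => by rw [map_smul, map_smul, hr]
  let f := tri (gf θ)
    (fun x x' y z => by rw [gf_eq θ (ga x x') (hr y) (hr z), gf_eq θ (hr x) (hr y) (hr z),
      gf_eq θ (hr x') (hr y) (hr z)]; exact t3_add1 _ _ _ _)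
    (fun c x y z => by rw [gf_eq θ (gs c x) (hr y) (hr z), gf_eq θ (hr x) (hr y) (hr z)]; exact t3_smul1 _ _ _ _)
    (fun x y y' z => by rw [gf_eq θ (hr x) (ga y y') (hr z), gf_eq θ (hr x) (hr y) (hr z),
      gf_eq θ (hr x) (hr y') (hr z)]; exact t3_add2 _ _ _ _)
    (fun c x y z => by rw [gf_eq θ (hr x) (gs c y) (hr z), gf_eq θ (hr x) (hr y) (hr z)]; exact t3_smul2 _ _ _ _)
    (fun x y z z' => by rw [gf_eq θ (hr x) (hr y) (ga z z'), gf_eq θ (hr x) (hr y) (hr z),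
      gf_eq θ (hr x) (hr y) (hr z')]; exact t3_add3 _ _ _ _)
    (fun c x y z => by rw [gf_eq θ (hr x) (hr y) (gs c z), gf_eq θ (hr x) (hr y) (hr z)]; exact t3_smul3 _ _ _ _)
  have hf : ∀ x y z, f x y z = gf θ x y z := fun _ _ _ => rfl
  refine ⟨f, ⟨fun x y => ?_, fun x y => ?_⟩, ?_, ?_⟩
  · rw [hf, gf_eq θ (hr x) (hr x) (hr y), t3_self]
  · rw [hf, gf_eq θ (hr x) (hr y) (hr y), t3_rot, t3_self]
  · intro h0
    have h1 : f (θ.symm (mk (e F (i := 0) (j := 1) (by decide)))) (θ.symm (mk (e F (i := 1) (j := 0) (by decide))))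
        (θ.symm (mk (d F 0 1))) = 0 := by rw [h0]; rfl
    rw [hf, gf_eq θ (θ.apply_symm_apply _).symm (θ.apply_symm_apply _).symm (θ.apply_symm_apply _).symm] at h1
    have h2 : t3 (e F (i := 0) (j := 1) (by decide)).1 (e F (i := 1) (j := 0) (by decide)).1 (d F 0 1).1 = -2 := by
      unfold t3 e d
      simp [Matrix.trace, Matrix.mul_apply, Fin.sum_univ_three, Matrix.single_apply]
      ring
    rw [h2] at h1
    have h3 : ((2 : ℕ) : F) = 0 := by
      have : (2 : F) = 0 := neg_eq_zero.1 h1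
      exact_mod_cast this
    rw [CharP.cast_eq_zero_iff F p] at h3
    exact hp2 ((Nat.prime_dvd_prime_iff_eq hp.out Nat.prime_two).1 h3)
  · intro g hg x y z
    rw [← hφ] at hg
    obtain ⟨g, rfl⟩ := hg
    have key : ∀ u, mk (adS σ g (r u)) = θ ((φ g : Matrix ι ι F) *ᵥ u) := fun u => by rw [hθ, ← hr, ad_mk]
    rw [hf, hf, gf_eq θ (key x) (key y) (key z), gf_eq θ (hr x) (hr y) (hr z), adS_val, adS_val, adS_val]
    exact t3_conj _ _ (mp_inv_mul σ g) _ _ _

end P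

end Cfsg.Agent.H887.DS
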